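import Mathlib

/-!
An elementary abelian 2-group with a cyclic group of automorphisms regular on the non-trivial
elements has at most one involutive automorphism normalising that group and fixing a given point.
-/

set_option autoImplicit false

namespace CfsgLib.RootInv.OddCommon

variable {V : Type*} [CommGroup V] [Finite V] {C : Subgroup (MulAut V)} {e : V}

theorem rigid_invariants (hexp : ∀ v : V, v * v = 1) [IsCyclic C] (he : e ≠ 1)
    (htr : ∀ v : V, v ≠ 1 → ∃ c ∈ C, c e = v) (hfree : ∀ c ∈ C, c e = e → c = 1)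
    {σ : MulAut V} (hσ : σ * σ = 1) (hσ1 : σ ≠ 1) (hσe : σ e = e)
    (hσC : ∀ c ∈ C, σ * c * σ⁻¹ ∈ C) :
    ∃ n, Nat.card C = n * (n + 2) ∧ n.Coprime (n + 2) ∧
      ∀ c ∈ C, (Commute σ c ↔ c ^ n = 1) := by
  classical
  haveI : Fact (Nat.Prime 2) := ⟨Nat.prime_two⟩
  have hp : IsPGroup 2 V := fun v => ⟨1, by rw [pow_one, pow_two, hexp]⟩
  set F : Subgroup (MulAut V) := C ⊓ Subgroup.centralizer {σ} with hF
  have hmem : ∀ c, c ∈ F ↔ c ∈ C ∧ Commute σ c := fun c => by
    rw [hF, Subgroup.mem_inf, Subgroup.mem_centralizer_singleton_iff]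
    exact and_congr_right fun _ => ⟨fun h => h.symm, fun h => h.symm⟩
  set W : Subgroup V := MonoidHom.eqLocus σ.toMonoidHom (MonoidHom.id V) with hW
  have hfix : ∀ c ∈ C, (σ (c e) = c e ↔ Commute σ c) := by
    intro c hc
    have e1 : σ (c e) = (σ * c * σ⁻¹) e := by
      have : σ⁻¹ e = e := by
        conv_lhs => rw [← hσe]
        exact MulAut.inv_apply_self V σ e
      simp only [MulAut.mul_apply, this]
    constructor
    · intro h
      have h1 := hfree _ (mul_mem (inv_mem hc) (hσC c hc)) (by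
        rw [MulAut.mul_apply, ← e1, h, MulAut.inv_apply_self])
      rw [inv_mul_eq_one] at h1
      show σ * c = c * σ
      conv_rhs => rw [h1, inv_mul_cancel_right]
    · intro h
      rw [e1, h.eq, mul_inv_cancel_right]
  have hbij : Function.Bijective (fun c : C => (⟨(c : MulAut V) e, fun h => he (by
      simpa using congrArg (c : MulAut V).symm h)⟩ : {v : V // v ≠ 1})) := by
    refine ⟨fun a b h => ?_, fun v => ?_⟩
    · have h' : (a : MulAut V) e = (b : MulAut V) e := congrArg Subtype.val h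
      have := hfree ((b : MulAut V)⁻¹ * a) (mul_mem (inv_mem b.2) a.2) (by
        rw [MulAut.mul_apply, h', MulAut.inv_apply_self])
      exact Subtype.ext (inv_mul_eq_one.mp this).symm
    · obtain ⟨c, hc, h⟩ := htr v v.2
      exact ⟨⟨c, hc⟩, Subtype.ext h⟩
  have hbijF : Function.Bijective (fun c : F => (⟨(c : MulAut V) e,
      (hfix _ ((hmem _).mp c.2).1).mpr ((hmem _).mp c.2).2, fun h => he (by
      simpa using congrArg (c : MulAut V).symm h)⟩ : {v : V // v ∈ W ∧ v ≠ 1})) := by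
    refine ⟨fun a b h => ?_, fun v => ?_⟩
    · have h' : (a : MulAut V) e = (b : MulAut V) e := congrArg Subtype.val h
      exact Subtype.ext (congrArg Subtype.val (hbij.1 (a₁ := ⟨a, ((hmem _).mp a.2).1⟩)
        (a₂ := ⟨b, ((hmem _).mp b.2).1⟩) (Subtype.ext h')) : _)
    · obtain ⟨c, hc, h⟩ := htr v v.2.2
      exact ⟨⟨c, (hmem c).mpr ⟨hc, (hfix c hc).mp (by rw [h]; exact v.2.1)⟩⟩, Subtype.ext h⟩
  have hcardC : Nat.card C + 1 = Nat.card V := by
    rw [Nat.card_congr (Equiv.ofBijective _ hbij), ← Finite.card_option]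
    exact Nat.card_congr (Equiv.optionSubtypeNe (1 : V))
  have hcardF : Nat.card F + 1 = Nat.card W := by
    rw [Nat.card_congr (Equiv.ofBijective _ hbijF),
      Nat.card_congr ((Equiv.subtypeSubtypeEquivSubtypeInter (fun v => v ∈ W) (fun v => v ≠ 1)).symm),
      ← Finite.card_option]
    refine Nat.card_congr ?_
    exact ((Equiv.optionCongr (Equiv.subtypeEquivRight
      (p := fun v : W => v ≠ 1) (q := fun v : W => (v : V) ≠ 1) fun v => by simp)).symm).trans
      (Equiv.optionSubtypeNe (1 : W))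
  obtain ⟨r, hr⟩ := IsPGroup.iff_card.1 hp
  obtain ⟨k, hk⟩ := IsPGroup.iff_card.1 (hp.to_subgroup W)
  let g : V →* V := σ.toMonoidHom * MonoidHom.id V
  have hker : g.ker = W := by
    ext v
    simp only [g, hW, MonoidHom.mem_ker, MonoidHom.mul_apply, MonoidHom.id_apply]
    exact ⟨fun h => (eq_inv_of_mul_eq_one_left h).trans (inv_eq_of_mul_eq_one_right (hexp v)),
      fun h => by rw [show σ.toMonoidHom v = v from h, hexp]⟩
  have hrange : g.range ≤ W := by
    rintro _ ⟨v, rfl⟩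
    show σ (σ v * v) = σ v * v
    rw [map_mul, ← MulAut.mul_apply, hσ, MulAut.one_apply, mul_comm]
  have hle : Nat.card V ≤ Nat.card W * Nat.card W := by
    rw [Subgroup.card_eq_card_quotient_mul_card_subgroup g.ker,
      Nat.card_congr (QuotientGroup.quotientKerEquivRange g).toEquiv, hker]
    exact Nat.mul_le_mul_right _ (Subgroup.card_le_of_le hrange)
  have hlt : k < r := by
    by_contra hkr
    have hWtop : W = ⊤ := Subgroup.eq_top_of_card_eq W (le_antisymm (Subgroup.card_le_card_group W)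
      (by rw [hr, hk]; exact Nat.pow_le_pow_right two_pos (not_lt.mp hkr)))
    exact hσ1 (MulEquiv.ext fun v => show σ v = v from (hWtop ▸ Subgroup.mem_top v : v ∈ W))
  have hrk : r ≤ 2 * k := by
    rw [hr, hk, ← pow_add, ← two_mul] at hle
    exact (Nat.pow_le_pow_iff_right (by norm_num)).mp hle
  have hdvd : 2 ^ k - 1 ∣ 2 ^ r - 1 := by
    have : Nat.card F ∣ Nat.card C := Subgroup.card_dvd_of_le inf_le_left
    rwa [show Nat.card F = 2 ^ k - 1 by omega, show Nat.card C = 2 ^ r - 1 by omega] at this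
  have hk0 : 0 < k := by
    rcases Nat.eq_zero_or_pos k with h0 | h0
    · rw [h0] at hk
      have := Nat.card_pos (α := F)
      omega
    · exact h0
  have hpow : 2 ^ r - 1 = 2 ^ (r - k) * (2 ^ k - 1) + (2 ^ (r - k) - 1) := by
    have h1 : 2 ^ (r - k) * 2 ^ k = 2 ^ r := by rw [← pow_add]; congr 1; omega
    have h2 := Nat.one_le_two_pow (n := r - k)
    have h3 : 2 ^ (r - k) ≤ 2 ^ r := Nat.pow_le_pow_right two_pos (Nat.sub_le r k)
    rw [Nat.mul_sub, mul_one, h1]
    omega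
  have hkr : r = 2 * k := by
    have hd : 2 ^ k - 1 ∣ 2 ^ (r - k) - 1 :=
      (Nat.dvd_add_right (dvd_mul_left _ _)).mp (hpow ▸ hdvd)
    have h1 : 1 < 2 ^ (r - k) := Nat.one_lt_two_pow (by omega)
    have h2 : 2 ^ k - 1 ≤ 2 ^ (r - k) - 1 := Nat.le_of_dvd (by omega) hd
    have h3 : 2 ^ k ≤ 2 ^ (r - k) := by omega
    have := (Nat.pow_le_pow_iff_right (by norm_num : 1 < 2)).mp h3
    omega
  subst hkr
  refine ⟨Nat.card F, ?_, ?_, fun c hc => ?_⟩
  · have h1 : Nat.card F + 1 = 2 ^ k := by omega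
    have h2 : Nat.card C + 1 = (Nat.card F + 1) * (Nat.card F + 1) := by
      rw [hcardC, hr, h1, ← pow_add, two_mul]
    nlinarith
  · rw [Nat.coprime_self_add_right]
    refine Nat.coprime_two_right.mpr ?_
    have h1 : 2 ∣ 2 ^ k := dvd_pow_self 2 (by omega)
    rw [Nat.odd_iff]
    omega
  · constructor
    · intro hcomm
      have : (⟨c, (hmem c).mpr ⟨hc, hcomm⟩⟩ : F) ^ Nat.card F = 1 := pow_card_eq_one'
      exact congrArg Subtype.val this
    · intro hpw
      classical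
      haveI : Fintype C := Fintype.ofFinite _
      have hle := IsCyclic.card_pow_eq_one_le (α := C) (Nat.card_pos (α := F))
      have hsub : (Finset.univ.filter fun a : C => (a : MulAut V) ∈ F) ⊆
          Finset.univ.filter fun a : C => a ^ Nat.card F = 1 := by
        intro a ha
        simp only [Finset.mem_filter, Finset.mem_univ, true_and] at ha ⊢
        exact Subtype.ext (congrArg Subtype.val
          (pow_card_eq_one' (G := F) (x := ⟨(a : MulAut V), ha⟩)) : _)
      have hcardeq : (Finset.univ.filter fun a : C => (a : MulAut V) ∈ F).card = Nat.card F := by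
        rw [← Fintype.card_subtype, ← Nat.card_eq_fintype_card]
        exact Nat.card_congr (Subgroup.subgroupOfEquivOfLe (inf_le_left : F ≤ C)).toEquiv
      have heq := Finset.eq_of_subset_of_card_le hsub (by rw [hcardeq]; exact hle)
      have h1 : (⟨c, hc⟩ : C) ∈ Finset.univ.filter fun a : C => a ^ Nat.card F = 1 := by
        exact Finset.mem_filter.mpr ⟨Finset.mem_univ _, Subtype.ext (by
          rw [SubgroupClass.coe_pow]; exact hpw)⟩
      rw [← heq] at h1
      simp only [Finset.mem_filter, Finset.mem_univ, true_and] at h1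
      exact ((hmem c).mp h1).2

/-- Two involutive automorphisms normalising the regular cyclic group and fixing `e` are equal. -/
theorem rigid (hexp : ∀ v : V, v * v = 1) [IsCyclic C] (he : e ≠ 1)
    (htr : ∀ v : V, v ≠ 1 → ∃ c ∈ C, c e = v) (hfree : ∀ c ∈ C, c e = e → c = 1)
    {σ τ : MulAut V} (hσ : σ * σ = 1) (hσ1 : σ ≠ 1) (hσe : σ e = e)
    (hσC : ∀ c ∈ C, σ * c * σ⁻¹ ∈ C) (hτ : τ * τ = 1) (hτ1 : τ ≠ 1) (hτe : τ e = e)
    (hτC : ∀ c ∈ C, τ * c * τ⁻¹ ∈ C) : σ = τ := by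
  obtain ⟨n, hn, hcop, hσF⟩ := rigid_invariants hexp he htr hfree hσ hσ1 hσe hσC
  obtain ⟨m, hm, -, hτF⟩ := rigid_invariants hexp he htr hfree hτ hτ1 hτe hτC
  obtain rfl : n = m := by nlinarith [hn.symm.trans hm]
  letI := IsCyclic.commGroup (α := C)
  have hcomm : ∀ a ∈ C, ∀ b ∈ C, Commute a b := fun a ha b hb =>
    congrArg Subtype.val (mul_comm (⟨a, ha⟩ : C) ⟨b, hb⟩)
  have hall : ∀ c ∈ C, c ^ (n * (n + 2)) = 1 := fun c hc => by
    rw [← hn]; exact congrArg Subtype.val (pow_card_eq_one' (G := C) (x := ⟨c, hc⟩))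
  have key : ∀ {ρ : MulAut V}, ρ * ρ = 1 → (∀ c ∈ C, ρ * c * ρ⁻¹ ∈ C) →
      (∀ c ∈ C, (Commute ρ c ↔ c ^ n = 1)) → ∀ c ∈ C,
      (ρ * c * ρ⁻¹) ^ (n + 2) = c ^ (n + 2) ∧ (ρ * c * ρ⁻¹) ^ n = (c ^ n)⁻¹ := by
    intro ρ hρ hρC hρF c hc
    have hinv : ρ⁻¹ = ρ := inv_eq_of_mul_eq_one_right hρ
    refine ⟨?_, ?_⟩
    · rw [conj_pow]
      have := (hρF _ (pow_mem hc (n + 2))).mpr (by rw [← pow_mul, mul_comm]; exact hall c hc)
      rw [this.eq, mul_inv_cancel_right]
    · set y := c ^ n with hy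
      have hyC : y ∈ C := pow_mem hc n
      set z := ρ * y * ρ⁻¹ * y with hz
      have hz1 : z ^ n = 1 := by
        refine (hρF z (mul_mem (hρC y hyC) hyC)).mp ?_
        show ρ * z = z * ρ
        refine mul_inv_eq_iff_eq_mul.mp ?_
        rw [hz, show ρ * (ρ * y * ρ⁻¹ * y) * ρ⁻¹ = (ρ * ρ) * y * (ρ⁻¹ * (y * ρ⁻¹)) by group, hρ,
          one_mul, hinv, ← mul_assoc ρ y ρ]
        exact (hcomm y hyC _ (by have := hρC y hyC; rwa [hinv] at this)).eq
      have hz2 : z ^ (n + 2) = 1 := by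
        rw [hz, (hcomm _ (hρC y hyC) y hyC).mul_pow, conj_pow, hy, ← pow_mul, hall c hc]
        group
      have h1 := pow_gcd_eq_one.mpr ⟨hz1, hz2⟩
      rw [hcop.gcd_eq_one, pow_one, hz] at h1
      rw [conj_pow, ← hy]
      exact eq_inv_of_mul_eq_one_left h1
  refine MulEquiv.ext fun v => ?_
  rcases eq_or_ne v 1 with rfl | hv
  · simp
  obtain ⟨c, hc, rfl⟩ := htr v hv
  obtain ⟨a1, a2⟩ := key hσ hσC hσF c hc
  obtain ⟨b1, b2⟩ := key hτ hτC hτF c hc
  have hd1 : ((σ * c * σ⁻¹) * (τ * c * τ⁻¹)⁻¹) ^ (n + 2) = 1 := by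
    rw [(hcomm _ (hσC c hc) _ (inv_mem (hτC c hc))).mul_pow, inv_pow, a1, b1, mul_inv_cancel]
  have hd2 : ((σ * c * σ⁻¹) * (τ * c * τ⁻¹)⁻¹) ^ n = 1 := by
    rw [(hcomm _ (hσC c hc) _ (inv_mem (hτC c hc))).mul_pow, inv_pow, a2, b2, mul_inv_cancel]
  have h1 := pow_gcd_eq_one.mpr ⟨hd2, hd1⟩
  rw [hcop.gcd_eq_one, pow_one, mul_inv_eq_one] at h1
  have app : ∀ ρ : MulAut V, ρ e = e → ρ (c e) = (ρ * c * ρ⁻¹) e := fun ρ h => by
    have : ρ⁻¹ e = e := by
      conv_lhs => rw [← h]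
      exact MulAut.inv_apply_self V ρ e
    simp only [MulAut.mul_apply, this]
  rw [app σ hσe, app τ hτe, h1]

end CfsgLib.RootInv.OddCommon
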